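import Cfsg.Agent.LE.J3U.QNum
import Cfsg.Agent.CosetEnum.J3.Simple

/-!
# The two presentations of the third Janko group (owner: helper80)
-/
set_option autoImplicit false
set_option maxRecDepth 1000000
set_option linter.all false

namespace Cfsg.Agent.LE.J3U

open Subgroup Cfsg.Agent.CosetEnum MulAction

/-- words for the letters `e, y, y⁻¹, n, f, t` of the other presentation -/
def wd : ℕ → List ℕ
  | 1 => [1] | 2 => [3, 11, 3, 13, 4, 5] | 3 => [5, 3, 12, 4, 11, 4] | 4 => [1, 11, 3, 10, 13, 4, 5] | 5 => [2]
  | 6 => [5, 6, 5, 8, 5] | _ => []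

/-- the letters of the other presentation -/
def hw (x : ℕ) : QJ := ((wd x).map qj).prod

theorem hw_word (u : List ℕ) : (u.map hw).prod = ((u.flatMap wd).map qj).prod := by
  induction u with
  | nil => rfl
  | cons x u ih => rw [List.map_cons, List.prod_cons, ih, List.flatMap_cons, List.map_append, List.prod_append]; rfl

theorem rep_word (u : List ℕ) (n : ℕ) : ((u.map qj).prod) ^ n = (((List.replicate n u).flatten).map qj).prod := by
  induction n with
  | zero => simp
  | succ n ih => rw [pow_succ', ih, List.replicate_succ, List.flatten_cons, List.map_append, List.prod_append]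

theorem rels_ok : ∀ p ∈ J3T6.RL, wOK 13 ((List.replicate p.2 (p.1.flatMap wd)).flatten) = true ∧
    bfB J3UT.P [(List.replicate p.2 (p.1.flatMap wd)).flatten] [0, 5476, 5] = true := by
  decide +kernel

theorem good_hw : Good hw 6 J3T6.iv J3T6.RL := by
  have sq : ∀ x, wOK 13 (wd x ++ wd (ivL J3T6.iv x)) = true →
      bfB J3UT.P [wd x ++ wd (ivL J3T6.iv x)] [0, 5476, 5] = true → hw (ivL J3T6.iv x) = (hw x)⁻¹ := by
    intro x h1 h2
    have := word_one h1 h2
    rw [List.map_append, List.prod_append] at this
    exact eq_inv_of_mul_eq_one_right this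
  constructor
  · intro x
    by_cases hx : 6 < x
    · have h1 : ivL J3T6.iv x = x := by
        simp only [J3T6.iv, ivL]
        have h1 : x ≠ 2 ∧ x ≠ 3 := by omega
        simp [h1]
      have h2 : hw x = 1 := by
        unfold hw wd
        split <;> first | omega | rfl
      rw [h1, h2, inv_one]
    · interval_cases x
      · exact inv_one.symm
      · exact sq 1 (by decide +kernel) (by decide +kernel)
      · exact sq 2 (by decide +kernel) (by decide +kernel)
      · exact sq 3 (by decide +kernel) (by decide +kernel)
      · exact sq 4 (by decide +kernel) (by decide +kernel)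
      · exact sq 5 (by decide +kernel) (by decide +kernel)
      · exact sq 6 (by decide +kernel) (by decide +kernel)
  · intro x hx
    have : x = 0 ∨ 6 < x := by
      by_contra h
      have : isLet 6 x = true := by rw [isLet_iff]; omega
      rw [this] at hx; cases hx
    rcases this with rfl | h
    · rfl
    · unfold hw wd
      split <;> first | omega | rfl
  · intro p hp
    obtain ⟨h1, h2⟩ := rels_ok p hp
    rw [hw_word, rep_word]
    exact word_one h1 h2

/-- **The two presented groups are isomorphic.** -/
theorem iso12 : ∃ e : J3.QJ ≃* QJ, ∀ x, e (J3.qJ x) = hw x := by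
  obtain ⟨φ, hφ⟩ := J3.UJ.univ QJ hw good_hw
  haveI := J3.simple_J
  have hinj : Function.Injective φ := by
    rw [← MonoidHom.ker_eq_bot_iff]
    rcases (inferInstance : φ.ker.Normal).eq_bot_or_eq_top with h | h
    · exact h
    · exfalso
      have h2 : J3.qJ 1 ∈ φ.ker := by rw [h]; exact mem_top _
      rw [MonoidHom.mem_ker, hφ 1] at h2
      have h3 : qj 1 = 1 := by
        have : hw 1 = qj 1 := by simp [hw, wd]
        rw [← this]; exact h2
      have h4 : s17 = qj 3 := by rw [show s17 = qj 1 * qj 3 from rfl, h3, one_mul]
      have hpos := LJ.pos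
      obtain ⟨A, letsk, cw, g1, g2, h5, h5k, _⟩ := LJ.ex
      have hm : 3 < J3UT.P.m := by decide +kernel
      have h8 := h5.word (u := [1]) (by decide) ⟨3, hm⟩
      have h9 : val (fun x => (qj x)⁻¹) [1] = 1 := by
        rw [val_inv]
        simp only [List.map_cons, List.map_nil, List.prod_cons, List.prod_nil, mul_one]
        rw [h3, inv_one]
      rw [h9, one_smul] at h8
      have h10 : actW J3UT.P [1] 3 ≠ 3 := by decide +kernel
      exact h10 h8.symm
  haveI : Finite J3.QJ := Nat.finite_of_card_ne_zero (by rw [J3.card_J]; norm_num)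
  have hbij : Function.Bijective φ := by
    rw [Nat.bijective_iff_injective_and_card]
    exact ⟨hinj, by rw [J3.card_J, cardJ]⟩
  exact ⟨MulEquiv.ofBijective φ hbij, hφ⟩

end Cfsg.Agent.LE.J3U
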