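import Cfsg.Agent.CosetEnum.J3.Pres
import Cfsg.Agent.H4.CardSL
import Mathlib

/-!
# The presented group `L₂(16)` is `SL(2, 16)` (owner: helper80)
-/
set_option autoImplicit false
set_option linter.all false

namespace Cfsg.Agent.LE.J3U

open Subgroup Cfsg.Agent.CosetEnum Matrix

section

variable {K : Type} [Field K] [Fintype K]

/-- diagonal elements -/
def dg (a : Kˣ) : SpecialLinearGroup (Fin 2) K := ⟨!![(a : K), 0; 0, ((a⁻¹ : Kˣ) : K)], by simp [Matrix.det_fin_two]⟩

theorem dg_mul (a b : Kˣ) : dg (a * b) = dg a * dg b := by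
  apply Subtype.ext
  show !![((a * b : Kˣ) : K), 0; 0, (((a * b)⁻¹ : Kˣ) : K)] = !![(a : K), 0; 0, ((a⁻¹ : Kˣ) : K)] * !![(b : K), 0; 0, ((b⁻¹ : Kˣ) : K)]
  ext i j
  fin_cases i <;> fin_cases j <;> simp [Matrix.mul_apply, Fin.sum_univ_two, mul_comm]

/-- the homomorphism -/
def dgH : Kˣ →* SpecialLinearGroup (Fin 2) K := MonoidHom.mk' dg dg_mul

theorem exists_mu (h16 : Fintype.card K = 16) : ∃ μ : K, μ ^ 4 + μ ^ 3 + 1 = 0 ∧ (2 : K) = 0 := by
  classical
  have h2 : (2 : K) = 0 := by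
    have h1 : ((16 : ℕ) : K) = 0 := by rw [← h16]; exact FiniteField.cast_card_eq_zero K
    have h3 : (2 : K) ^ 4 = 0 := by norm_num; exact_mod_cast h1
    exact pow_eq_zero_iff (by norm_num) |>.1 h3
  -- the cofactor has at most 12 roots
  by_contra hcon
  push Not at hcon
  let q : Polynomial K := Polynomial.X * (Polynomial.X + 1) * (Polynomial.X ^ 2 + Polynomial.X + 1) *
    (Polynomial.X ^ 4 + Polynomial.X + 1) * (Polynomial.X ^ 4 + Polynomial.X ^ 3 + Polynomial.X ^ 2 + Polynomial.X + 1)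
  have hq : q.natDegree = 12 := by
    have e1 : (Polynomial.X : Polynomial K).natDegree = 1 := Polynomial.natDegree_X
    have e2 : (Polynomial.X + 1 : Polynomial K).natDegree = 1 := by compute_degree!
    have e3 : (Polynomial.X ^ 2 + Polynomial.X + 1 : Polynomial K).natDegree = 2 := by compute_degree!
    have e4 : (Polynomial.X ^ 4 + Polynomial.X + 1 : Polynomial K).natDegree = 4 := by compute_degree!
    have e5 : (Polynomial.X ^ 4 + Polynomial.X ^ 3 + Polynomial.X ^ 2 + Polynomial.X + 1 : Polynomial K).natDegree = 4 := by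
      compute_degree!
    have n1 : (Polynomial.X : Polynomial K) ≠ 0 := Polynomial.ne_zero_of_natDegree_gt (n := 0) (by omega)
    have n2 : (Polynomial.X + 1 : Polynomial K) ≠ 0 := Polynomial.ne_zero_of_natDegree_gt (n := 0) (by omega)
    have n3 : (Polynomial.X ^ 2 + Polynomial.X + 1 : Polynomial K) ≠ 0 := Polynomial.ne_zero_of_natDegree_gt (n := 0) (by omega)
    have n4 : (Polynomial.X ^ 4 + Polynomial.X + 1 : Polynomial K) ≠ 0 := Polynomial.ne_zero_of_natDegree_gt (n := 0) (by omega)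
    have n5 : (Polynomial.X ^ 4 + Polynomial.X ^ 3 + Polynomial.X ^ 2 + Polynomial.X + 1 : Polynomial K) ≠ 0 :=
      Polynomial.ne_zero_of_natDegree_gt (n := 0) (by omega)
    show (Polynomial.X * (Polynomial.X + 1) * (Polynomial.X ^ 2 + Polynomial.X + 1) *
      (Polynomial.X ^ 4 + Polynomial.X + 1) * (Polynomial.X ^ 4 + Polynomial.X ^ 3 + Polynomial.X ^ 2 + Polynomial.X + 1) :
        Polynomial K).natDegree = 12
    rw [Polynomial.natDegree_mul (mul_ne_zero (mul_ne_zero (mul_ne_zero n1 n2) n3) n4) n5,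
      Polynomial.natDegree_mul (mul_ne_zero (mul_ne_zero n1 n2) n3) n4,
      Polynomial.natDegree_mul (mul_ne_zero n1 n2) n3, Polynomial.natDegree_mul n1 n2, e1, e2, e3, e4, e5]
  have hq0 : q ≠ 0 := Polynomial.ne_zero_of_natDegree_gt (n := 0) (by omega)
  have hroots : ∀ x : K, x ∈ q.roots.toFinset := by
    intro x
    rw [Multiset.mem_toFinset, Polynomial.mem_roots hq0]
    have h3 : x ^ 16 = x := by rw [← h16]; exact FiniteField.pow_card x
    have h4 : (x ^ 4 + x ^ 3 + 1) * q.eval x = 0 := by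
      have : q.eval x = x * (x + 1) * (x ^ 2 + x + 1) * (x ^ 4 + x + 1) * (x ^ 4 + x ^ 3 + x ^ 2 + x + 1) := by
        simp [q]
      rw [this]
      have e : (x ^ 4 + x ^ 3 + 1) * (x * (x + 1) * (x ^ 2 + x + 1) * (x ^ 4 + x + 1) * (x ^ 4 + x ^ 3 + x ^ 2 + x + 1)) =
          (x ^ 16 - x) + 2 * (x + 2 * x ^ 2 + 4 * x ^ 3 + 6 * x ^ 4 + 9 * x ^ 5 + 13 * x ^ 6 + 16 * x ^ 7 + 17 * x ^ 8 +
            17 * x ^ 9 + 16 * x ^ 10 + 13 * x ^ 11 + 9 * x ^ 12 + 6 * x ^ 13 + 4 * x ^ 14 + 2 * x ^ 15) := by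
        ring
      rw [e, h3, h2]; ring
    rcases mul_eq_zero.1 h4 with h5 | h5
    · exact absurd h2 (hcon x h5)
    · exact h5
  have h5 : Fintype.card K ≤ 12 := by
    calc Fintype.card K = (Finset.univ : Finset K).card := rfl
      _ ≤ q.roots.toFinset.card := Finset.card_le_card (fun x _ => hroots x)
      _ ≤ Multiset.card q.roots := Multiset.toFinset_card_le _
      _ ≤ q.natDegree := Polynomial.card_roots' q
      _ = 12 := hq
  omega

/-- the elements of `SL(2, 16)` for the letters `e, y, y⁻¹, n` -/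
theorem exists_good (h16 : Fintype.card K = 16) : ∃ g : ℕ → SpecialLinearGroup (Fin 2) K,
    Good g 4 J3T4.iv J3T4.RL ∧ g 1 ≠ 1 := by
  classical
  obtain ⟨μ, hμ, h2⟩ := exists_mu h16
  haveI : CharP K 2 := CharTwo.of_one_ne_zero_of_two_eq_zero one_ne_zero h2
  have hμ0 : μ ≠ 0 := by
    rintro rfl
    norm_num at hμ
  obtain ⟨m, hm⟩ : ∃ m : Kˣ, (m : K) = μ := ⟨Units.mk0 μ hμ0, rfl⟩
  obtain ⟨l, hl⟩ : ∃ l : Kˣ, l = (m⁻¹) ^ 8 := ⟨_, rfl⟩
  have h15 : Fintype.card Kˣ = 15 := by rw [Fintype.card_units, h16]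
  have hm15 : m ^ 15 = 1 := by rw [← h15]; exact pow_card_eq_one
  have hl15 : l ^ 15 = 1 := by rw [← h15]; exact pow_card_eq_one
  have hlm : l⁻¹ ^ 2 = m := by
    have h3 : l⁻¹ = m ^ 8 := by rw [hl, inv_pow, inv_inv]
    rw [h3]
    calc (m ^ 8) ^ 2 = m ^ 15 * m := by rw [← pow_mul, ← pow_succ]
      _ = m := by rw [hm15, one_mul]
  let E : SpecialLinearGroup (Fin 2) K := ⟨!![1, 1; 0, 1], by simp [Matrix.det_fin_two]⟩
  let N : SpecialLinearGroup (Fin 2) K := ⟨!![0, 1; 1, 0], by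
    rw [Matrix.det_fin_two]; simp; exact CharTwo.neg_eq 1⟩
  have hEE : E * E = 1 := by
    apply Subtype.ext
    show !![(1 : K), 1; 0, 1] * !![(1 : K), 1; 0, 1] = 1
    ext i j
    fin_cases i <;> fin_cases j <;> simp [Matrix.mul_apply, Fin.sum_univ_two, CharTwo.add_self_eq_zero]
  have hNN : N * N = 1 := by
    apply Subtype.ext
    show !![(0 : K), 1; 1, 0] * !![(0 : K), 1; 1, 0] = 1
    ext i j
    fin_cases i <;> fin_cases j <;> simp [Matrix.mul_apply, Fin.sum_univ_two]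
  have hEN : E * N * (E * N) * (E * N) = 1 := by
    apply Subtype.ext
    show !![(1 : K), 1; 0, 1] * !![(0 : K), 1; 1, 0] * (!![(1 : K), 1; 0, 1] * !![(0 : K), 1; 1, 0]) *
      (!![(1 : K), 1; 0, 1] * !![(0 : K), 1; 1, 0]) = 1
    ext i j
    fin_cases i <;> fin_cases j <;> simp [Matrix.mul_apply, Fin.sum_univ_two, CharTwo.add_self_eq_zero]
  have hND : ∀ a : Kˣ, N * dg a * (N * dg a) = 1 := by
    intro a
    apply Subtype.ext
    show !![(0 : K), 1; 1, 0] * !![(a : K), 0; 0, ((a⁻¹ : Kˣ) : K)] * (!![(0 : K), 1; 1, 0] * !![(a : K), 0; 0, ((a⁻¹ : Kˣ) : K)]) = 1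
    ext i j
    fin_cases i <;> fin_cases j <;> simp [Matrix.mul_apply, Fin.sum_univ_two]
  have hrel : ∀ a b c : Kˣ, a * b * c = 1 → ((a : K)) ^ 2 + ((c⁻¹ : Kˣ) : K) ^ 2 + 1 = 0 →
      E * dg a * (E * dg b) * (E * dg c) = 1 := by
    intro a b c h1 h3
    have ha : (a : K) * b * c = 1 := by
      rw [← Units.val_mul, ← Units.val_mul, h1, Units.val_one]
    have ha' : ((a⁻¹ : Kˣ) : K) * ((b⁻¹ : Kˣ) : K) * ((c⁻¹ : Kˣ) : K) = 1 := by
      rw [← Units.val_mul, ← Units.val_mul, show a⁻¹ * b⁻¹ * c⁻¹ = (a * b * c)⁻¹ by rw [_root_.mul_inv, _root_.mul_inv],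
        h1, inv_one, Units.val_one]
    have haa : (a : K) * ((a⁻¹ : Kˣ) : K) = 1 := Units.mul_inv a
    have hbb : (b : K) * ((b⁻¹ : Kˣ) : K) = 1 := Units.mul_inv b
    have hcc : (c : K) * ((c⁻¹ : Kˣ) : K) = 1 := Units.mul_inv c
    apply Subtype.ext
    show !![(1 : K), 1; 0, 1] * !![(a : K), 0; 0, ((a⁻¹ : Kˣ) : K)] * (!![(1 : K), 1; 0, 1] * !![(b : K), 0; 0, ((b⁻¹ : Kˣ) : K)]) *
      (!![(1 : K), 1; 0, 1] * !![(c : K), 0; 0, ((c⁻¹ : Kˣ) : K)]) = 1
    generalize ((a⁻¹ : Kˣ) : K) = a' at *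
    generalize ((b⁻¹ : Kˣ) : K) = b' at *
    generalize ((c⁻¹ : Kˣ) : K) = c' at *
    generalize (a : K) = a at *
    generalize (b : K) = b at *
    generalize (c : K) = c at *
    ext i j
    fin_cases i <;> fin_cases j <;> simp [Matrix.mul_apply, Fin.sum_univ_two]
    · exact ha
    · have e1 : a * b = c' := by
        calc a * b = a * b * (c * c') := by rw [hcc, mul_one]
          _ = (a * b * c) * c' := by ring
          _ = c' := by rw [ha, one_mul]
      have e2 : b' * c' = a := by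
        calc b' * c' = (a * a') * (b' * c') := by rw [haa, one_mul]
          _ = a * (a' * b' * c') := by ring
          _ = a := by rw [ha', mul_one]
      linear_combination c' * e1 + a * e2 + ha' + h3
    · exact ha'
  have dg1 : dg (1 : Kˣ) = 1 := dgH.map_one
  have dgp : ∀ (a : Kˣ) (n : ℕ), dg (a ^ n) = dg a ^ n := fun a n => dgH.map_pow a n
  let g : ℕ → SpecialLinearGroup (Fin 2) K := fun x => match x with
    | 1 => E | 2 => dg l | 3 => dg l⁻¹ | 4 => N | _ => 1
  have gbig : ∀ x, 4 < x → g x = 1 := by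
    intro x hx
    show (match x with
      | 1 => E | 2 => dg l | 3 => dg l⁻¹ | 4 => N | _ => 1) = 1
    split <;> first | omega | rfl
  refine ⟨g, ⟨?_, ?_, ?_⟩, ?_⟩
  · intro x
    by_cases hx : 4 < x
    · have h1 : ivL J3T4.iv x = x := by
        simp only [J3T4.iv, ivL]
        have h1 : x ≠ 2 ∧ x ≠ 3 := by omega
        simp [h1]
      rw [h1, gbig x hx, inv_one]
    · interval_cases x
      · exact inv_one.symm
      · exact eq_inv_of_mul_eq_one_left hEE
      · show dg l⁻¹ = (dg l)⁻¹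
        exact eq_inv_of_mul_eq_one_left (by rw [← dg_mul, inv_mul_cancel, dg1])
      · show dg l = (dg l⁻¹)⁻¹
        exact eq_inv_of_mul_eq_one_left (by rw [← dg_mul, mul_inv_cancel, dg1])
      · exact eq_inv_of_mul_eq_one_left hNN
  · intro x hx
    have : x = 0 ∨ 4 < x := by
      by_contra h
      have : isLet 4 x = true := by rw [isLet_iff]; omega
      rw [this] at hx; cases hx
    rcases this with rfl | h
    · rfl
    · exact gbig x h
  · intro p hp
    simp only [J3T4.RL, List.mem_cons, List.not_mem_nil, or_false] at hp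
    rcases hp with rfl | rfl | rfl | rfl
    · show ([dg l].prod) ^ 15 = 1
      rw [List.prod_singleton, ← dgp, hl15, dg1]
    · show ([E, dg l⁻¹, dg l⁻¹, dg l⁻¹, E, dg l⁻¹, E, dg l, dg l, dg l, dg l].prod) ^ 1 = 1
      have := hrel (l⁻¹ * l⁻¹ * l⁻¹) l⁻¹ (l * l * l * l) (by group) (by
        have e1 : ((l⁻¹ * l⁻¹ * l⁻¹ : Kˣ) : K) ^ 2 = μ ^ 3 := by
          rw [← hm, ← hlm, Units.val_mul, Units.val_mul, Units.val_pow_eq_pow_val]; ring
        have e2 : (((l * l * l * l)⁻¹ : Kˣ) : K) ^ 2 = μ ^ 4 := by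
          rw [← hm, ← hlm, show (l * l * l * l)⁻¹ = l⁻¹ * l⁻¹ * l⁻¹ * l⁻¹ by group, Units.val_mul, Units.val_mul,
            Units.val_mul, Units.val_pow_eq_pow_val]; ring
        rw [e1, e2]
        linear_combination hμ)
      simp only [List.prod_cons, List.prod_nil, mul_one, pow_one]
      rw [dg_mul, dg_mul, dg_mul, dg_mul, dg_mul] at this
      simpa only [mul_assoc] using this
    · show ([N, dg l].prod) ^ 2 = 1
      have := hND l
      simp only [List.prod_cons, List.prod_nil, mul_one, pow_two]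
      exact this
    · show ([E, N].prod) ^ 3 = 1
      simp only [List.prod_cons, List.prod_nil, mul_one, pow_succ, pow_zero, one_mul]
      exact hEN
  · intro h
    have h0 : E = 1 := h
    have h1 : E.1 0 1 = (1 : SpecialLinearGroup (Fin 2) K).1 0 1 := by rw [h0]
    simp [E] at h1

theorem card_SL216 (h16 : Fintype.card K = 16) : Nat.card (SpecialLinearGroup (Fin 2) K) = 4080 := by
  have h := Cfsg.Agent.H4.card_SL_mul (F := K) 2 (by norm_num)
  rw [Matrix.card_GL_field, h16] at h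
  simp [Fin.prod_univ_succ, h16] at h
  omega

/-- **`SL(2, 16)`.** -/
theorem iso216 (h16 : Fintype.card K = 16) : Nonempty (J3.Q4 ≃* SpecialLinearGroup (Fin 2) K) := by
  obtain ⟨g, hg, hg1⟩ := exists_good h16
  obtain ⟨φ, hφ⟩ := qg_univ hg
  haveI := J3.simple4
  have hinj : Function.Injective φ := by
    rw [← MonoidHom.ker_eq_bot_iff]
    rcases (inferInstance : φ.ker.Normal).eq_bot_or_eq_top with h | h
    · exact h
    · exfalso
      have h2 : J3.q4 1 ∈ φ.ker := by rw [h]; exact mem_top _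
      rw [MonoidHom.mem_ker, hφ 1] at h2
      exact hg1 h2
  haveI : Finite J3.Q4 := Nat.finite_of_card_ne_zero (by rw [J3.card4]; norm_num)
  have hbij : Function.Bijective φ := by
    rw [Nat.bijective_iff_injective_and_card]
    exact ⟨hinj, by rw [J3.card4, card_SL216 h16]⟩
  exact ⟨MulEquiv.ofBijective φ hbij⟩

end

end Cfsg.Agent.LE.J3U
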